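import Cfsg.Agent.Lib.KnownSimple.MultM.M23V.Fact4_0

/-!
# A coset enumeration
-/

set_option autoImplicit false

namespace Cfsg.Agent.Lib.KnownSimple.MultM.M23V

open Cfsg Cfsg.Spor Cfsg.Agent.Lib.Compute Cfsg.Agent.Lib.KnownSimple.PE Cfsg.Agent.Lib.KnownSimple.Leech
open Cfsg.Agent.Lib.KnownSimple Cfsg.Agent.Lib.KnownSimple.AutRigid Cfsg.Agent.Lib.KnownSimple.Pres


theorem facts4 : allBelow (Cert.factOK C4) K4 = true :=
  allBelow_of_pad (m := 27) (s := 2584) (by norm_num) (fun c hc => by
    interval_cases c
    · exact fc4_0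
    · exact fc4_1
    · exact fc4_2
    · exact fc4_3
    · exact fc4_4
    · exact fc4_5
    · exact fc4_6
    · exact fc4_7
    · exact fc4_8
    · exact fc4_9
    · exact fc4_10
    · exact fc4_11
    · exact fc4_12
    · exact fc4_13
    · exact fc4_14
    · exact fc4_15
    · exact fc4_16
    · exact fc4_17
    · exact fc4_18
    · exact fc4_19
    · exact fc4_20
    · exact fc4_21
    · exact fc4_22
    · exact fc4_23
    · exact fc4_24
    · exact fc4_25
    · exact fc4_26
  )
set_option maxHeartbeats 0 in
set_option maxRecDepth 100000 in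
theorem ec4_0 : chunk (padB 253 (fun i => allBelow (fun g => Cert.entry C4 253 K4 g i) 6)) 2584 0 = true := by decide +kernel

theorem entries4 : allBelow (fun i => allBelow (fun g => Cert.entry C4 253 K4 g i) 6) 253 = true :=
  allBelow_of_pad (m := 1) (s := 2584) (by norm_num) (fun c hc => by
    interval_cases c
    · exact ec4_0
  )

end Cfsg.Agent.Lib.KnownSimple.MultM.M23V
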