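import Mathlib

/-!
# Data of a coset enumeration
-/

set_option autoImplicit false

namespace Cfsg.Agent.Lib.KnownSimple.MultM.M23V

/-- Generated data. -/
def par1 : ℕ := 0x96543221100
/-- Generated data. -/
def gix1 : ℕ := 0x198948
/-- Generated data. -/
def dp1 : ℕ := 0x1648db488
/-- Generated data. -/
def fa1 : ℕ := 0xa98865321aa996624578543522311000
/-- Generated data. -/
def fl1 : ℕ := 0x208080000808004080010008081c60b182020800004041010008080
/-- Generated data. -/
def fb1 : ℕ := 0x965932110aaa89622458876554332100
/-- Generated data. -/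
def fk1 : ℕ := 0x343224324950a063448b000700900011
/-- Generated data. -/
def po1 : ℕ := 0x93223c68b121c282f1ab554a91a13e74b8c18306050a140000000000
/-- Generated data. -/
def pc1 : ℕ := 0x111111111570b072226b000700500000
/-- Generated data. -/
def pa1 : ℕ := 0xa245a648e206128923969a275915e6a644881030451e13d74881e01894de31c39a51430f5d959644e1892c81cf4573861011473c8103149
/-- Generated data. -/
def can1 : ℕ := 0xa98653210
/-- Generated data. -/
def tb1_0 : ℕ := 0x867345120
/-- Generated data. -/
def fi1_0 : ℕ := 0x159f3684e060
/-- Generated data. -/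
def tb1_1 : ℕ := 0x784561230
/-- Generated data. -/
def fi1_1 : ℕ := 0x1fa762bcc081
/-- Generated data. -/
def tb1_2 : ℕ := 0x856723401
/-- Generated data. -/
def fi1_2 : ℕ := 0x16f325a29ee2

end Cfsg.Agent.Lib.KnownSimple.MultM.M23V
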