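import Mathlib

/-!
# Data of a coset enumeration
-/

set_option autoImplicit false

namespace Cfsg.Agent.Lib.KnownSimple.MultM.M23V

/-- Generated data. -/
def par2 : ℕ := 0x5b5b692240
/-- Generated data. -/
def gix2 : ℕ := 0x34e394c
/-- Generated data. -/
def dp2 : ℕ := 0x491b6db488
/-- Generated data. -/
def fa2 : ℕ := 0xcbaa866533321accc5bbb5a5248899666938332221110000
/-- Generated data. -/
def fl2 : ℕ := 0x604080040c1020604000060c080040c1800404100038c180c600080c604181040018202040020608080
/-- Generated data. -/
def fb2 : ℕ := 0x55c532c281610aac6cbbbbaa223889637998876543211000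
/-- Generated data. -/
def fk2 : ℕ := 0x28c622148428c422c9735024c400c01c0a28b5c27a407000000000a00421
/-- Generated data. -/
def po2 : ℕ := 0x9e9d9c9b9a9998979695949392887d737070665954544d4d4b403e3b30261c1a0f080803030303030303030000000000
/-- Generated data. -/
def pc2 : ℕ := 0x1111111111111aba30ad50702b23baa2b705000000030000
/-- Generated data. -/
def pa2 : ℕ := 0xf1a42605893e20a8620141a13f46855195681f437e8d0975264b0c16458bf44497116ae1d347af0813684178a0c0c38b22d5a101434b99525860b5e45ab420bc8b5604050916458ac1c389a154a558c164d1924c693254e7121a1818085061c69734303030e2c9a1367509b3868606021c5933e5090a0c080071a6ce1a2a68606061c69b2c3048d2e18287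
/-- Generated data. -/
def can2 : ℕ := 0xcba8653210
/-- Generated data. -/
def tb2_0 : ℕ := 0x9846375120
/-- Generated data. -/
def fi2_0 : ℕ := 0x81cb14418964140
/-- Generated data. -/
def tb2_1 : ℕ := 0x7496581230
/-- Generated data. -/
def fi2_1 : ℕ := 0x86eb4c45a997181
/-- Generated data. -/
def tb2_2 : ℕ := 0x5873926410
/-- Generated data. -/
def fi2_2 : ℕ := 0x7db66ba682c8102
/-- Generated data. -/
def tb2_3 : ℕ := 0x4873296501
/-- Generated data. -/
def fi2_3 : ℕ := 0xbdd895a9e9c98c3

end Cfsg.Agent.Lib.KnownSimple.MultM.M23V
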