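import Cfsg.Agent.Lib.KnownSimple.MultM.M23V.Pres
import Cfsg.Agent.Lib.KnownSimple.MultM.M23V.Data0_0

/-!
# A coset enumeration
-/

set_option autoImplicit false

namespace Cfsg.Agent.Lib.KnownSimple.MultM.M23V

open Cfsg Cfsg.Spor Cfsg.Agent.Lib.Compute Cfsg.Agent.Lib.KnownSimple.PE Cfsg.Agent.Lib.KnownSimple.Leech
open Cfsg.Agent.Lib.KnownSimple Cfsg.Agent.Lib.KnownSimple.AutRigid Cfsg.Agent.Lib.KnownSimple.Pres

/-- A coset enumeration. -/
noncomputable def C0 : Cert where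
  eL := 99
  ig := fun a => a
  words := [[0, 0], [1, 1], [0, 1, 0, 1, 0, 1, 0, 1]]
  sub := fun _ => false
  par := pget 3 7 par0
  gix := pget 1 1 gix0
  dp := pget 3 7 dp0
  fa := pget 3 7 fa0
  fl := pget 1 1 fl0
  fb := pget 3 7 fb0
  fk := pget 3 7 fk0
  po := pget 4 15 po0
  pc := pget 3 7 pc0
  pa := pget 4 15 pa0
  can := pget 3 7 can0
  t := cns (pget 3 7 tb0_0) (cns (pget 3 7 tb0_1) (fun _ => 0))
  fid := cns (pget 4 15 fi0_0) (cns (pget 4 15 fi0_1) (fun _ => 0))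

/-- The number of facts. -/
abbrev K0 : ℕ := 16

set_option maxRecDepth 100000 in
theorem words0 : wordsOK ([] :: S.L.relW) C0.words = true := by decide +kernel

end Cfsg.Agent.Lib.KnownSimple.MultM.M23V
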