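import Cfsg.Agent.Lib.KnownSimple.MultM.M23V.Pres
import Cfsg.Agent.Lib.KnownSimple.MultM.M23V.Data2_0

/-!
# A coset enumeration
-/

set_option autoImplicit false

namespace Cfsg.Agent.Lib.KnownSimple.MultM.M23V

open Cfsg Cfsg.Spor Cfsg.Agent.Lib.Compute Cfsg.Agent.Lib.KnownSimple.PE Cfsg.Agent.Lib.KnownSimple.Leech
open Cfsg.Agent.Lib.KnownSimple Cfsg.Agent.Lib.KnownSimple.AutRigid Cfsg.Agent.Lib.KnownSimple.Pres

/-- A coset enumeration. -/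
noncomputable def C2 : Cert where
  eL := 99
  ig := fun a => a
  words := [[0, 0], [1, 1], [2, 2], [3, 3], [2, 0, 2, 0, 2, 0, 2, 0], [1, 2, 1, 2, 1, 2], [2, 1, 2, 1, 2, 1], [1, 3, 1, 3, 1, 3, 1, 3], [2, 3, 2, 3], [1, 0, 2, 0, 1, 2, 1, 0, 2, 0, 1, 2], [0, 1, 2, 1, 0, 1, 2, 0, 1, 2, 1, 0, 2, 1], [0, 1, 3, 0, 3, 0, 3, 1, 3, 1, 3], [1, 3, 0, 3, 0, 3, 1, 3, 1, 3, 0], [0, 3, 1, 3, 1, 3, 0, 1, 3, 0, 3], [3, 1, 3, 0, 1, 3, 0, 3, 0, 3, 1], [2, 1, 3, 1, 2, 0, 3, 1, 3, 0, 1], [3, 1, 2, 0, 3, 1, 3, 0, 1, 2, 1], [0, 3, 1, 3, 0, 1, 2, 1, 3, 1, 2]]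
  sub := fun x => Nat.blt x 3
  par := pget 3 7 par2
  gix := pget 2 3 gix2
  dp := pget 3 7 dp2
  fa := pget 4 15 fa2
  fl := pget 7 127 fl2
  fb := pget 4 15 fb2
  fk := pget 5 31 fk2
  po := pget 8 255 po2
  pc := pget 4 15 pc2
  pa := pget 7 127 pa2
  can := pget 4 15 can2
  t := cns (pget 4 15 tb2_0) (cns (pget 4 15 tb2_1) (cns (pget 4 15 tb2_2) (cns (pget 4 15 tb2_3) (fun _ => 0))))
  fid := cns (pget 6 63 fi2_0) (cns (pget 6 63 fi2_1) (cns (pget 6 63 fi2_2) (cns (pget 6 63 fi2_3) (fun _ => 0))))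

/-- The number of facts. -/
abbrev K2 : ℕ := 48

set_option maxRecDepth 100000 in
theorem words2 : wordsOK ([] :: S.L.relW) C2.words = true := by decide +kernel

end Cfsg.Agent.Lib.KnownSimple.MultM.M23V
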