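import Cfsg.Agent.Lib.KnownSimple.MultM.M11.Main
import Cfsg.Agent.Lib.KnownSimple.MultM.M23V.CertAll

/-!
# The Schur multiplier
-/

set_option autoImplicit false

namespace Cfsg.Agent.Lib.KnownSimple.MultM.M23V

open Cfsg Cfsg.Spor Cfsg.Agent.Lib.Compute Cfsg.Agent.Lib.KnownSimple.PE Cfsg.Agent.Lib.KnownSimple.Leech
open Cfsg.Agent.Lib.KnownSimple Cfsg.Agent.Lib.KnownSimple.AutRigid Cfsg.Agent.Lib.KnownSimple.Pres
open Cfsg.Agent.Lib.KnownSimple.MultC
open Cfsg.Agent.Lib.Golay Cfsg.Agent.Lib.KnownSimple.CodeCalc Cfsg.Agent.Lib.KnownSimple.MathieuData Cfsg.Agent.Lib.KnownSimple.MathieuFacts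
open Cfsg.Agent.Lib.KnownSimple.MathieuGen Cfsg.Agent.Lib.KnownSimple.MathieuOut Cfsg.Agent.Lib.KnownSimple.MultM

/-- A word. -/
def wS0 : List ℕ := [10,2,10,6,2,4,10,6,10,2,4]
theorem hS0 : ∃ u ∈ stabOf ρ h0, ψ u = ppm 58556955075170785427998439953683671 * U * (ppm 58556955075170785427998439953683671)⁻¹ := by
  have hw : ∀ l ∈ wS0, l < 2 * d := by decide +kernel
  refine ⟨ev v wS0, word_mem_stab C hρ hw h0 (by decide +kernel), ?_⟩
  exact (toX_word enc CN hρ0 hw (conj_code (c := 58556955075170785427998439953683671) (ci := 10474019585091942401801541895493347) (t := pU) (by decide +kernel) (by decide +kernel) (by decide +kernel) (by decide +kernel)) (by decide +kernel)).symm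
/-- A word. -/
def wS1 : List ℕ := [0,4,8,2,8,0,10,0,4,0,10]
theorem hS1 : ∃ u ∈ stabOf ρ h0, ψ u = ppm 58556955075170785427998439953683671 * X * (ppm 58556955075170785427998439953683671)⁻¹ := by
  have hw : ∀ l ∈ wS1, l < 2 * d := by decide +kernel
  refine ⟨ev v wS1, word_mem_stab C hρ hw h0 (by decide +kernel), ?_⟩
  exact (toX_word enc CN hρ0 hw (conj_code (c := 58556955075170785427998439953683671) (ci := 10474019585091942401801541895493347) (t := pX) (by decide +kernel) (by decide +kernel) (by decide +kernel) (by decide +kernel)) (by decide +kernel)).symm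
/-- A word. -/
def wS2 : List ℕ := [4,6,8,10,4,10,8,6,10,0,4]
theorem hS2 : ∃ u ∈ stabOf ρ h0, ψ u = ppm 58556955075170785427998439953683671 * Y4' * (ppm 58556955075170785427998439953683671)⁻¹ := by
  have hw : ∀ l ∈ wS2, l < 2 * d := by decide +kernel
  refine ⟨ev v wS2, word_mem_stab C hρ hw h0 (by decide +kernel), ?_⟩
  exact (toX_word enc CN hρ0 hw (conj_code (c := 58556955075170785427998439953683671) (ci := 10474019585091942401801541895493347) (t := pY4') (by decide +kernel) (by decide +kernel) (by decide +kernel) (by decide +kernel)) (by decide +kernel)).symm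
theorem hTM : ({U, X, Y4'} : Set P24) ⊆ M11 := by
  rintro t (rfl | rfl | rfl)
  · exact mem_of_t11 (by decide +kernel : tM11 pU = true)
  · exact mem_of_t11 (by decide +kernel : tM11 pX = true)
  · exact mem_of_t11 (by decide +kernel : tM11 pY4' = true)
theorem hMF : MF (stabOf ρ h0) := by
  refine MF_stab_of_words ψ hψinj ρ h0 (htr_right htr) M11 Cfsg.Agent.Lib.KnownSimple.MultM.M11.mf (ppm 58556955075170785427998439953683671) _ hTM gen_M11 ?_ ?_
  · rintro t (rfl | rfl | rfl)
    · exact hS0
    · exact hS1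
    · exact hS2
  · rw [card_P, card_M11]
    rfl

theorem upperP (Γ : Type) [Group Γ] [Finite Γ] (σ : Γ →* P) (hσ : IsStemExtension σ) :
    ∃ π : Multiplicative (ZMod 1) →* σ.ker, Function.Surjective π :=
  upperV C hP A B hcomm hρ hMF hrr.1 hrr.2 hRLe hokR hloopR (Q := 37) (P := 20) (Qr := 31) (by decide +kernel) (by decide +kernel)
    hTree hE hF (qs := 0) (m := 1) (by decide +kernel) hcert Γ σ hσ

theorem multP : HasCyclicSchurMultiplier P 1 := hasCyclic_one_of upperP

theorem mfP : MF P := MF_of_upper hP A B hcomm upperP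

theorem mult : HasCyclicSchurMultiplier ↥M23 1 := hasSchur_congr e multP

theorem mf : MF ↥M23 := mfP.congr e

end Cfsg.Agent.Lib.KnownSimple.MultM.M23V
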