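import Cfsg.Agent.Lib.KnownSimple.MultM.M23V.Bound
import Cfsg.Agent.Lib.KnownSimple.MultM.Conj
import Cfsg.Agent.Lib.KnownSimple.MultC.Glue

/-!
# The natural representation
-/

set_option autoImplicit false

namespace Cfsg.Agent.Lib.KnownSimple.MultM.M23V

open Cfsg Cfsg.Spor Cfsg.Agent.Lib.Compute Cfsg.Agent.Lib.KnownSimple.PE Cfsg.Agent.Lib.KnownSimple.Leech
open Cfsg.Agent.Lib.KnownSimple Cfsg.Agent.Lib.KnownSimple.AutRigid Cfsg.Agent.Lib.KnownSimple.Pres
open Cfsg.Agent.Lib.KnownSimple.MultC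
open Cfsg.Agent.Lib.Golay Cfsg.Agent.Lib.KnownSimple.CodeCalc Cfsg.Agent.Lib.KnownSimple.MathieuData Cfsg.Agent.Lib.KnownSimple.MathieuFacts
open Cfsg.Agent.Lib.KnownSimple.MathieuGen Cfsg.Agent.Lib.KnownSimple.MathieuOut Cfsg.Agent.Lib.KnownSimple.MultM

abbrev d : ℕ := 6
set_option maxHeartbeats 0 in
theorem hP : IsPres d v (stdRels S) := isPres_std S (by decide +kernel)
/-- The letters. -/
def cs : List ℕ := [984595137648923788561440491536746848,975544102995969086084373417758430260,962653433195980879725715260202043776,962744642160703482910780532975537540,960149446870186197135276975988618574,964860345786140785257630235646599200]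
theorem hK : cs.all tM23 = true := by decide +kernel
theorem hCN : chkCoset (tauC cs) d 24 = true := by decide +kernel
/-- The natural table. -/
noncomputable def CN : Coset d 24 := mkCoset (tauC cs) hCN
abbrev N0 : ℕ := 24
set_option maxHeartbeats 0 in
theorem hok : ∀ r ∈ stdRels S, ∀ l ∈ r, l < 2 * d := words_of_chk (by decide +kernel)
set_option maxHeartbeats 0 in
theorem hl0 : ∀ r ∈ stdRels S, ∀ i, i < 24 → actW CN.τ r i = i := loops_of_chk (by decide +kernel)
theorem ex0 : ∃ ρ : P →* Equiv.Perm (Fin 24), ∀ x, x < d → ρ (v x) = (CN.p x)⁻¹ := exists_rho hP CN hok hl0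
/-- The natural representation. -/
noncomputable def ρ0 : P →* Equiv.Perm (Fin 24) := ex0.choose
theorem hρ0 : ∀ x, x < d → ρ0 (v x) = (CN.p x)⁻¹ := ex0.choose_spec
/-- The natural representation. -/
noncomputable def ψ : P →* Equiv.Perm GolayPt := toX enc ρ0
theorem hmem : ∀ x, x < d → ψ (v x) ∈ M23 := by
  intro x hx
  have hc : lg 0 cs x ∈ cs := lg_mem (by
    have e : cs.length = d := by decide +kernel
    rw [e]
    exact hx)
  have ht := chk_of_all hK hc
  show toX enc ρ0 (v x) ∈ M23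
  rw [← letter_eq CN rfl hρ0 hx (perm_of_t (t24_of_23 ht))]
  exact mem_of_t23 ht
/-- A word. -/
def wT0 : List ℕ := [6,0,8,2,10,0,2,6,10,8]
theorem rT0 : W = ψ (ev v wT0) := toX_word enc CN hρ0 (by decide +kernel) (isCode_ppm (by decide +kernel)) (by decide +kernel)
/-- A word. -/
def wT1 : List ℕ := [0,8,6,0,6,10,0,6,8,0,6]
theorem rT1 : U = ψ (ev v wT1) := toX_word enc CN hρ0 (by decide +kernel) (isCode_ppm (by decide +kernel)) (by decide +kernel)
/-- A word. -/
def wT2 : List ℕ := [6,10,2,8,2,6,10,0,10,6]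
theorem rT2 : X = ψ (ev v wT2) := toX_word enc CN hρ0 (by decide +kernel) (isCode_ppm (by decide +kernel)) (by decide +kernel)
theorem hTr : ∀ t ∈ ({W, U, X} : Set P24), t ∈ ψ.range := by
  rintro t (rfl | rfl | rfl)
  · exact ⟨_, rT0.symm⟩
  · exact ⟨_, rT1.symm⟩
  · exact ⟨_, rT2.symm⟩
theorem hle : Nat.card P ≤ Nat.card ↥M23 := by
  rw [card_M23]
  exact finite_P.2
theorem ex_e : ∃ e : P ≃* ↥M23, ∀ u, (e u : P24) = ψ u := exists_equiv hP ψ M23 hmem _ gen_M23 hTr hle
/-- The isomorphism. -/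
noncomputable def e : P ≃* ↥M23 := ex_e.choose
theorem he : ∀ u, (e u : P24) = ψ u := ex_e.choose_spec
theorem hψinj : Function.Injective ψ := fun a b h => e.injective (Subtype.ext (by rw [he, he, h]))
theorem hρ0inj : Function.Injective ρ0 := inj_of_toX enc hψinj
theorem card_P : Nat.card P = 10200960 := by
  rw [Nat.card_congr e.toEquiv, card_M23]

end Cfsg.Agent.Lib.KnownSimple.MultM.M23V
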